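import Cfsg.Agent.H259.U6.Main

/-!
# The transvection of `SU₆(2)` (helper201, row 2E6(2) of S2491)

A transvection `t` of `SU₆(2)` is not a commutator of a generating pair.  Here: `t = [a, y]` with `a` of
order 15 and `y` an involution, `⟨a, y⟩ = 2^4 : 15`, such that `⟨a, y⟩` has no fixed vector in any
module `M` (elementary abelian) in which `SU₆(2)` has no fixed vector, `SU₆(2)` is trivial on `M/M₀`, and
the two subgroups `⟨a⟩` and `3³` have no fixed vectors in `M₀` (`M₀ = 2^20`, `M = 2^22`).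

Paper proof: helper297.
-/

set_option autoImplicit false
set_option linter.unusedSectionVars false
set_option maxRecDepth 100000

namespace Cfsg.Agent.H201.F4

open Cfsg Cfsg.Agent.LieClassical.HermBasic Cfsg.Agent.ClassicalGeometry.UnitTransv
  Cfsg.Agent.SporadicStructure.UnitTwo Cfsg.Agent.H259.U6

section F

variable {F : Type*} [Field F] [Fintype F] (hF : Fintype.card F = 2 ^ 2) {ω : F} (hω : ω ^ 2 + ω + 1 = 0)

open Classical in
/-- the transvection of a code -/
noncomputable def TC (ω : F) (c : ℕ) : SU 6 F 2 :=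
  if h : hermForm 6 F 2 (dec ω c) (dec ω c) = 0 then T hF (dec ω c) h else 1

/-- the product of transvections -/
noncomputable def TL (ω : F) (L : List ℕ) : SU 6 F 2 := (L.map (TC hF ω)).prod

theorem TL_append (L L' : List ℕ) : TL hF ω (L ++ L') = TL hF ω L * TL hF ω L' := by
  unfold TL
  rw [List.map_append, List.prod_append]

theorem TL_nil : TL hF ω [] = 1 := rfl

theorem TC_eq {c : ℕ} (h : hermForm 6 F 2 (dec ω c) (dec ω c) = 0) : TC hF ω c = T hF (dec ω c) h := by
  unfold TC
  rw [dif_pos h]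

theorem TL_one (c : ℕ) : TL hF ω [c] = TC hF ω c := by
  unfold TL
  simp

include hω in
theorem rp_TL : ∀ L : List ℕ, (∀ c ∈ L, c < 4096 ∧ hm c c = 0) → Rp ω (act (TL hF ω L)) (tvs L) := by
  intro L
  induction L with
  | nil => exact fun _ => rp_one
  | cons c L ih =>
    intro h
    have hg := ih fun d hd => h d (List.mem_cons_of_mem _ hd)
    obtain ⟨h1, h2⟩ := h c List.mem_cons_self
    have e := (herm_eq_zero_iff hF hω c c).2 h2
    have h3 : tvs (c :: L) = fun x => tv c (tvs L x) := funext fun x => tvs_cons c L x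
    have h4 : TL hF ω (c :: L) = T hF (dec ω c) e * TL hF ω L := by
      rw [← TC_eq hF e]
      unfold TL
      rw [List.map_cons, List.prod_cons]
    rw [h3, h4]
    exact rp_mul (rp_T hF hω h1 e) hg

/-- equality of two products of transvections -/
def eqT (L L' : List ℕ) : Bool :=
  okT L && (okT L' && allB 6 fun j => Nat.beq (tvs L (Nat.pow 4 j)) (tvs L' (Nat.pow 4 j)))

include hω in
theorem TL_eq {L L' : List ℕ} (h : eqT L L' = true) : TL hF ω L = TL hF ω L' := by
  unfold eqT at h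
  simp only [Bool.and_eq_true] at h
  obtain ⟨h1, h2, h3⟩ := h
  refine ext6 hF hω (rp_TL hF hω L (okT_spec h1)) (rp_TL hF hω L' (okT_spec h2)) fun j hj => ?_
  exact beq_eq (allB_spec h3 j hj)

/-- the element of order 5 -/
def Lg : List ℕ := [1088, 2112, 2704, 3024]
/-- the element of order 3 on `⟨e₁, e₂⟩` -/
def Lu : List ℕ := [5, 9]
/-- the element of order 3 on `⟨e₃, e₄⟩` -/
def Lu' : List ℕ := [80, 144]
/-- the element of order 3 on `⟨e₅, e₆⟩` -/
def Lu'' : List ℕ := [1280, 2304]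
/-- the element of order 15 -/
def La : List ℕ := Lu ++ Lg
/-- the involution `y` -/
def Ly : List ℕ := [1280, 2720]
/-- the element interchanging `E₀` and `E₀'` -/
def Ln : List ℕ := [3136, 272, 3984]
/-- `e₁ ↔ e₃, e₂ ↔ e₄` -/
def Lk : List ℕ := [17, 68]
/-- `e₁ ↔ e₅, e₂ ↔ e₆` -/
def Lk' : List ℕ := [257, 1028]

theorem c1 : eqT ([80] ++ (Ly ++ La)) (La ++ Ly) = true := by decide +kernel
theorem c2 : eqT (La ++ [80]) ([1280] ++ La) = true := by decide +kernel
theorem c3 : eqT (La ++ [1280]) ([2640] ++ La) = true := by decide +kernel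
theorem c4 : eqT (La ++ [2640]) ([2720] ++ La) = true := by decide +kernel
theorem c5 : eqT (La ++ [2720]) ([1440] ++ La) = true := by decide +kernel
theorem c6 : eqT (Ln ++ La) (La ++ (La ++ (La ++ (La ++ (La ++ (La ++ (La ++ Ln))))))) = true := by decide +kernel
theorem c7 : eqT (La ++ (La ++ (La ++ (La ++ (La ++ (La ++ (La ++ (La ++ (La ++ La))))))))) Lu = true := by
  decide +kernel
theorem c8 : eqT (La ++ (La ++ (La ++ (La ++ (La ++ La))))) Lg = true := by decide +kernel
theorem c9 : eqT (Lu ++ Lk) (Lk ++ Lu') = true := by decide +kernel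
theorem c10 : eqT (Lu' ++ Lk) (Lk ++ Lu) = true := by decide +kernel
theorem c11 : eqT (Lu'' ++ Lk) (Lk ++ Lu'') = true := by decide +kernel
theorem c12 : eqT (Lu ++ Lk') (Lk' ++ Lu'') = true := by decide +kernel
theorem c13 : eqT (Lu'' ++ Lk') (Lk' ++ Lu) = true := by decide +kernel
theorem c14 : eqT (Lu' ++ Lk') (Lk' ++ Lu') = true := by decide +kernel
theorem c15 : eqT (Ly ++ Ly) [] = true := by decide +kernel
theorem c16 : eqT (La ++ (La ++ (La ++ (La ++ (La ++ (La ++ (La ++ (La ++ (La ++ (La ++ (La ++ (La ++ (La ++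
  (La ++ La)))))))))))))) [] = true := by decide +kernel

include hω in
/-- `t = [a, y]` -/
theorem comm_T : TL hF ω [80] = TL hF ω La * TL hF ω Ly * (TL hF ω La)⁻¹ * (TL hF ω Ly)⁻¹ := by
  have h := TL_eq hF hω c1
  rw [TL_append, TL_append, TL_append] at h
  have h2 := TL_eq hF hω c15
  rw [TL_append, TL_nil] at h2
  rw [← h]
  group

section mod

variable {M : Type*} [AddCommGroup M] [DistribMulAction (SU 6 F 2) M] (M₀ : AddSubgroup M)

/-- an element of `U₆(2)` fixing `m`, conjugation of transvections in the stabilizer -/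
theorem inH_conj {H : Subgroup (SU 6 F 2)} {L : List ℕ} (hL : okT L = true) (hg : TL hF ω L ∈ H) {x : ℕ}
    (hx : InH hF ω H x) (hω : ω ^ 2 + ω + 1 = 0) : InH hF ω H (tvs L x) := by
  obtain ⟨h1, h2, h3⟩ := hx
  have e := (herm_eq_zero_iff hF hω x x).2 h2
  obtain ⟨h4, h5⟩ := rp_TL hF hω L (okT_spec hL) x h1
  have h6 : hermForm 6 F 2 (dec ω (tvs L x)) (dec ω (tvs L x)) = 0 := by
    rw [← h5, herm_act, e]
  refine ⟨h4, (herm_eq_zero_iff hF hω _ _).1 h6, ?_⟩
  rw [← h5]
  intro h
  rw [← conj_T hF _ _ e h]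
  exact mul_mem (mul_mem hg (h3 _)) (inv_mem hg)

theorem inH_iff {H : Subgroup (SU 6 F 2)} (hω : ω ^ 2 + ω + 1 = 0) {x : ℕ} (h1 : x < 4096) (h2 : hm x x = 0) :
    InH hF ω H x ↔ TL hF ω [x] ∈ H := by
  have e := (herm_eq_zero_iff hF hω x x).2 h2
  rw [TL_one, TC_eq hF e]
  exact ⟨fun h => h.2.2 e, fun h => ⟨h1, h2, fun _ => h⟩⟩

include hω in
/-- **no fixed vector for the pair of the transvection** -/
theorem fix_T (ht : ∀ (g : SU 6 F 2) (m : M), g • m - m ∈ M₀)
    (hG : ∀ m : M, (∀ g : SU 6 F 2, g • m = m) → m = 0)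
    (h33 : ∀ m ∈ M₀, TL hF ω Lu • m = m → TL hF ω Lu' • m = m → TL hF ω Lu'' • m = m → m = 0)
    (h15 : ∀ m ∈ M₀, TL hF ω Lu • m = m → TL hF ω Lg • m = m → m = 0)
    {m : M} (ha : TL hF ω La • m = m) (hy : TL hF ω Ly • m = m) : m = 0 := by
  let H : Subgroup (SU 6 F 2) := MulAction.stabilizer (SU 6 F 2) m
  have hH : ∀ g, g ∈ H ↔ g • m = m := fun g => MulAction.mem_stabilizer_iff
  -- the transvection
  have haH : TL hF ω La ∈ H := (hH _).2 ha
  have hyH : TL hF ω Ly ∈ H := (hH _).2 hy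
  have hu : TL hF ω Lu ∈ H := by
    rw [← TL_eq hF hω c7]
    simp only [TL_append]
    exact H.mul_mem haH (H.mul_mem haH (H.mul_mem haH (H.mul_mem haH (H.mul_mem haH (H.mul_mem haH
      (H.mul_mem haH (H.mul_mem haH (H.mul_mem haH haH))))))))
  have hg : TL hF ω Lg ∈ H := by
    rw [← TL_eq hF hω c8]
    simp only [TL_append]
    exact H.mul_mem haH (H.mul_mem haH (H.mul_mem haH (H.mul_mem haH (H.mul_mem haH haH))))
  have h80 : InH hF ω H 80 := by
    rw [inH_iff hF hω (by norm_num) rfl, comm_T hF hω]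
    exact H.mul_mem (H.mul_mem (H.mul_mem haH hyH) (H.inv_mem haH)) (H.inv_mem hyH)
  have step : ∀ x, InH hF ω H x → InH hF ω H (tvs La x) := fun x hx => inH_conj hF rfl haH hx hω
  have h1280 : InH hF ω H 1280 := step _ h80
  have h2640 : InH hF ω H 2640 := step _ h1280
  have h2720 : InH hF ω H 2720 := step _ h2640
  have h1440 : InH hF ω H 1440 := step _ h2720
  -- uniqueness
  have uniq : ∀ g : SU 6 F 2, (TL hF ω Lu) • (g • m) = g • m → (TL hF ω Lg) • (g • m) = g • m → g • m = m := by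
    intro g h1 h2
    have h3 := h15 (g • m - m) (ht g m) (by rw [smul_sub, h1, (hH _).1 hu]) (by rw [smul_sub, h2, (hH _).1 hg])
    exact sub_eq_zero.1 h3
  have uniq' : ∀ g : SU 6 F 2, (TL hF ω Lu) • (g • m) = g • m → (TL hF ω Lu') • (g • m) = g • m →
      (TL hF ω Lu'') • (g • m) = g • m → (TL hF ω Lu') ∈ H → (TL hF ω Lu'') ∈ H → g • m = m := by
    intro g h1 h2 h3 h4 h5
    have h3 := h33 (g • m - m) (ht g m) (by rw [smul_sub, h1, (hH _).1 hu]) (by rw [smul_sub, h2, (hH _).1 h4])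
      (by rw [smul_sub, h3, (hH _).1 h5])
    exact sub_eq_zero.1 h3
  -- the element `n`
  have hn : TL hF ω Ln ∈ H := by
    rw [hH]
    -- `a` fixes `n m`
    have h1 : TL hF ω La • (TL hF ω Ln • m) = TL hF ω Ln • m := by
      have h2 := TL_eq hF hω c6
      simp only [TL_append] at h2
      have h3 : (TL hF ω La) ^ 7 * TL hF ω Ln = TL hF ω Ln * TL hF ω La := by
        rw [h2]
        simp only [pow_succ, pow_zero, one_mul, mul_assoc]
      have h15' : (TL hF ω La) ^ 15 = 1 := by
        have h4 := TL_eq hF hω c16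
        simp only [TL_append, TL_nil] at h4
        rw [← h4]
        simp only [pow_succ, pow_zero, one_mul, mul_assoc]
      have h5 : (TL hF ω La) ^ 7 • (TL hF ω Ln • m) = TL hF ω Ln • m := by
        rw [← mul_smul, h3, mul_smul, ha]
      have h6 : ∀ k : ℕ, ((TL hF ω La) ^ 7) ^ k • (TL hF ω Ln • m) = TL hF ω Ln • m := by
        intro k
        induction k with
        | zero => rw [pow_zero, one_smul]
        | succ k ih => rw [pow_succ, mul_smul, h5, ih]
      have h7 : ((TL hF ω La) ^ 7) ^ 13 = TL hF ω La := by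
        rw [← pow_mul, show 7 * 13 = 15 * 6 + 1 by norm_num, pow_succ, pow_mul, h15', one_pow, one_mul]
      have h8 := h6 13
      rwa [h7] at h8
    have hpow : ∀ k : ℕ, (TL hF ω La) ^ k • (TL hF ω Ln • m) = TL hF ω Ln • m := by
      intro k
      induction k with
      | zero => rw [pow_zero, one_smul]
      | succ k ih => rw [pow_succ, mul_smul, h1, ih]
    refine uniq _ ?_ ?_
    · have e : TL hF ω Lu = (TL hF ω La) ^ 10 := by
        rw [← TL_eq hF hω c7]
        simp only [TL_append, pow_succ, pow_zero, one_mul, mul_assoc]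
      rw [e]; exact hpow 10
    · have e : TL hF ω Lg = (TL hF ω La) ^ 6 := by
        rw [← TL_eq hF hω c8]
        simp only [TL_append, pow_succ, pow_zero, one_mul, mul_assoc]
      rw [e]; exact hpow 6
  have stepn : ∀ x, InH hF ω H x → InH hF ω H (tvs Ln x) := fun x hx => inH_conj hF rfl hn hx hω
  have h1936 : InH hF ω H 1936 := stepn _ h80
  have h144 : InH hF ω H 144 := stepn _ h1280
  have h1904 : InH hF ω H 1904 := stepn _ h2640
  have h2304 : InH hF ω H 2304 := stepn _ h2720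
  have h640 : InH hF ω H 640 := InH.tv hF hω h2640 h1904
  have h2080 : InH hF ω H 2080 := InH.tv hF hω h1440 h1904
  have h3472 : InH hF ω H 3472 := InH.tv hF hω h1280 h1936
  have h3424 : InH hF ω H 3424 := InH.tv hF hω h80 h3472
  have h320 : InH hF ω H 320 := InH.sm hF hω h640 (c := 3) (by norm_num) (by norm_num)
  have h1040 : InH hF ω H 1040 := InH.sm hF hω h2080 (c := 3) (by norm_num) (by norm_num)
  have toT : ∀ {x y : ℕ}, InH hF ω H x → InH hF ω H y → TL hF ω [x, y] ∈ H := by
    intro x y hx hy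
    have e : TL hF ω [x, y] = TL hF ω [x] * TL hF ω [y] := TL_append hF [x] [y]
    rw [e]
    exact H.mul_mem ((inH_iff hF hω hx.1 hx.2.1).1 hx) ((inH_iff hF hω hy.1 hy.2.1).1 hy)
  have hu' : TL hF ω Lu' ∈ H := toT h80 h144
  have hu'' : TL hF ω Lu'' ∈ H := toT h1280 h2304
  -- the two permutations
  have act_eq : ∀ {A B : List ℕ} {K : List ℕ}, eqT (A ++ K) (K ++ B) = true → TL hF ω B ∈ H →
      TL hF ω A • (TL hF ω K • m) = TL hF ω K • m := by
    intro A B K h hB
    have h1 := TL_eq hF hω h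
    rw [TL_append, TL_append] at h1
    rw [← mul_smul, h1, mul_smul, (hH _).1 hB]
  have hk : TL hF ω Lk ∈ H := (hH _).2 (uniq' _ (act_eq c9 hu') (act_eq c10 hu) (act_eq c11 hu'') hu' hu'')
  have hk' : TL hF ω Lk' ∈ H := (hH _).2 (uniq' _ (act_eq c12 hu'') (act_eq c14 hu') (act_eq c13 hu) hu' hu'')
  have h5 : InH hF ω H 5 := inH_conj hF (L := Lk) rfl hk h80 hω
  have h20 : InH hF ω H 20 := inH_conj hF (L := Lk') rfl hk' h1040 hω
  have h109 : InH hF ω H 109 := inH_conj hF (L := Lk') rfl hk' h3424 hω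
  have htop : H = ⊤ := by
    apply six hF hω
    intro p hp
    have hp' : p = 5 ∨ p = 20 ∨ p = 80 ∨ p = 320 ∨ p = 1280 ∨ p = 109 := by
      simpa [G6] using hp
    rcases hp' with rfl | rfl | rfl | rfl | rfl | rfl
    · exact h5
    · exact h20
    · exact h80
    · exact h320
    · exact h1280
    · exact h109
  exact hG m fun g => (hH g).1 (htop ▸ Subgroup.mem_top g)

end mod

end F

end Cfsg.Agent.H201.F4
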